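import Cfsg.Agent.OrthSmall.Klein
import Cfsg.Agent.Classical.Orth.OrderStd
import Cfsg.Agent.Classical.Orth.CentreOmega
import Cfsg.Agent.S0292
import Cfsg.Agent.S0246
import Cfsg.Agent.Classical.Symp.Card
import Cfsg.Agent.Classical.Symp.Simple

/-!
# `PΩ₅(q) ≅ PSp₄(q)`: the hyperplane of the exterior square orthogonal to the symplectic form
-/

set_option autoImplicit false
set_option maxHeartbeats 1000000

namespace CfsgLib.OrthSmall

open Matrix CfsgLib.Classical.Orth CfsgLib.OrthGeo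

theorem card_pomega_odd_of_two_le {F : Type*} [Field F] [Fintype F] {q : ℕ}
    (hF : Fintype.card F = q) (hodd : Odd q) (m : ℕ) (hm : 2 ≤ m) :
    2 * Nat.card (Cfsg.POmega F (Cfsg.quadFormOdd m F)) =
      q ^ (m ^ 2) * ∏ i ∈ Finset.range m, (q ^ (2 * (i + 1)) - 1) := by
  classical
  subst hF
  have h2 : (2 : F) ≠ 0 := by
    intro h2
    have h0 := FiniteField.even_card_of_char_two (F := F)
      (CharP.ringChar_of_prime_eq_zero Nat.prime_two (by simpa using h2))
    rw [Nat.odd_iff.mp hodd] at h0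
    exact absurd h0 one_ne_zero
  have hN := isNondegenerateQuadraticForm_quadFormOdd (F := F) m h2
  have hn : 5 ≤ Fintype.card (Unit ⊕ (Fin m ⊕ Fin m)) := by simp; omega
  have hno : ¬ ∃ g : ↥(Cfsg.isometryGroup F (Cfsg.quadFormOdd m F)), g ∈ Cfsg.Omega F (Cfsg.quadFormOdd m F) ∧
      ((g : GL (Unit ⊕ (Fin m ⊕ Fin m)) F) : Matrix (Unit ⊕ (Fin m ⊕ Fin m)) (Unit ⊕ (Fin m ⊕ Fin m)) F) = -1 := by
    rintro ⟨g, hg, hv⟩
    have hd := det_eq_neg_one_pow hN (not_exc_of_two_ne_zero h2) g.2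
    rw [hv, ((mem_omega_iff hN (not_exc_of_two_ne_zero h2) g).1 hg).1.neg_one_pow, Matrix.det_neg,
      Matrix.det_one, mul_one, Odd.neg_one_pow ⟨m, by simp; omega⟩] at hd
    exact h2 (by linear_combination -hd)
  have h := card_pOmega_mul hN
  rw [(card_center_omega hN hn).1 (Or.inl hno), mul_one, index_omega_odd hN h2 (by omega),
    card_isometryGroup_odd h2] at h
  simp only [evenProd] at h
  rw [mul_assoc 2] at h
  omega

variable {F : Type*} [Field F]

/-- The index type of the five-dimensional form. -/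
abbrev I5 : Type := Unit ⊕ (Fin 2 ⊕ Fin 2)

/-- The hyperplane inside the six-dimensional space. -/
def emb5 : (I5 → F) →ₗ[F] (I6 → F) where
  toFun v := Sum.elim ![v (.inr (.inl 0)), v (.inl ()), v (.inr (.inl 1))]
    ![v (.inr (.inr 0)), v (.inl ()), v (.inr (.inr 1))]
  map_add' u v := by funext i; rcases i with i | i <;> fin_cases i <;> simp
  map_smul' c v := by funext i; rcases i with i | i <;> fin_cases i <;> simp

/-- A left inverse of `emb5`. -/
def proj5 : (I6 → F) →ₗ[F] (I5 → F) where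
  toFun v := Sum.elim (fun _ => v (.inl 1))
    (Sum.elim ![v (.inl 0), v (.inl 2)] ![v (.inr 0), v (.inr 2)])
  map_add' u v := by funext i; rcases i with _ | i | i <;> first | rfl | (fin_cases i <;> simp)
  map_smul' c v := by funext i; rcases i with _ | i | i <;> first | rfl | (fin_cases i <;> simp)

theorem proj5_emb5 (v : I5 → F) : proj5 (emb5 v) = v := by
  funext i
  rcases i with ⟨⟩ | i | i
  · simp [proj5, emb5]
  · fin_cases i <;> simp [proj5, emb5]
  · fin_cases i <;> simp [proj5, emb5]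

theorem emb5_proj5 {v : I6 → F} (h : v (.inr 1) = v (.inl 1)) : emb5 (proj5 v) = v := by
  funext i
  rcases i with i | i <;> fin_cases i <;> simp [proj5, emb5, h]

theorem quadFormPlus_emb5 (v : I5 → F) :
    Cfsg.quadFormPlus 3 F (emb5 v) = Cfsg.quadFormOdd 2 F v := by
  simp [Cfsg.quadFormPlus, Cfsg.quadFormOdd, emb5, Fin.sum_univ_three, Fin.sum_univ_two]
  ring

/-- The symplectic form on `Fin 4`. -/
def j4 : Matrix (Fin 4) (Fin 4) F := !![0, 0, -1, 0; 0, 0, 0, -1; 1, 0, 0, 0; 0, 1, 0, 0]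

theorem trace_j4_mul (v : I6 → F) :
    (j4 * mat6 v).trace = 2 * (v (.inl 1) - v (.inr 1)) := by
  simp [j4, mat6, Matrix.trace, Matrix.mul_apply, Fin.sum_univ_four]
  ring

/-- A matrix in the symplectic group, on `Fin 4`. -/
def spMat : Matrix.symplecticGroup (Fin 2) F →* Matrix (Fin 4) (Fin 4) F where
  toFun g := Matrix.reindex finSumFinEquiv finSumFinEquiv g.1
  map_one' := by simp
  map_mul' g h := (Matrix.submatrix_mul_equiv g.1 h.1 _ _ _).symm

theorem spMat_transpose_j4_mul (g : Matrix.symplecticGroup (Fin 2) F) :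
    (spMat g)ᵀ * j4 * spMat g = j4 := by
  have hj : (j4 : Matrix (Fin 4) (Fin 4) F) =
      Matrix.reindex finSumFinEquiv finSumFinEquiv (Matrix.J (Fin 2) F) := by
    ext i j
    fin_cases i <;> fin_cases j <;>
      simp [j4, Matrix.J, Matrix.fromBlocks, finSumFinEquiv, Fin.addCases]
  have h := SymplecticGroup.mem_iff'.1 g.2
  show (Matrix.reindex finSumFinEquiv finSumFinEquiv g.1)ᵀ * j4 *
    Matrix.reindex finSumFinEquiv finSumFinEquiv g.1 = j4
  rw [hj, Matrix.reindex_apply, Matrix.reindex_apply, Matrix.transpose_submatrix,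
    Matrix.submatrix_mul_equiv, Matrix.submatrix_mul_equiv, h]

theorem klein_spMat_emb5 (h2 : (2 : F) ≠ 0) (g : Matrix.symplecticGroup (Fin 2) F) (v : I5 → F) :
    emb5 (proj5 (klein (spMat g) *ᵥ emb5 v)) = klein (spMat g) *ᵥ emb5 v := by
  refine emb5_proj5 ?_
  have h := trace_j4_mul (klein (spMat g) *ᵥ emb5 v)
  rw [mat6_klein, ← mul_assoc, Matrix.trace_mul_comm, ← mul_assoc, ← mul_assoc,
    spMat_transpose_j4_mul, trace_j4_mul] at h
  have h' := mul_left_cancel₀ h2 h
  simp [emb5] at h'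
  exact (sub_eq_zero.1 h'.symm).symm

/-- The symplectic group on the hyperplane, as a matrix. -/
noncomputable def spFive (h2 : (2 : F) ≠ 0) :
    Matrix.symplecticGroup (Fin 2) F →* Matrix I5 I5 F where
  toFun g := LinearMap.toMatrix' (proj5 ∘ₗ (klein (spMat g)).mulVecLin ∘ₗ emb5)
  map_one' := by
    rw [show proj5 ∘ₗ (klein (spMat (1 : Matrix.symplecticGroup (Fin 2) F))).mulVecLin ∘ₗ emb5 =
      LinearMap.id from LinearMap.ext fun v => by simp [proj5_emb5]]
    exact LinearMap.toMatrix'_id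
  map_mul' g h := by
    rw [← LinearMap.toMatrix'_comp]
    congr 1
    refine LinearMap.ext fun v => ?_
    simp only [LinearMap.comp_apply, Matrix.mulVecLin_apply, map_mul, ← mulVec_mulVec]
    rw [klein_spMat_emb5 h2 h v]

theorem emb5_spFive (h2 : (2 : F) ≠ 0) (g : Matrix.symplecticGroup (Fin 2) F) (v : I5 → F) :
    emb5 (spFive h2 g *ᵥ v) = klein (spMat g) *ᵥ emb5 v := by
  rw [show spFive h2 g = LinearMap.toMatrix' (proj5 ∘ₗ (klein (spMat g)).mulVecLin ∘ₗ emb5) from rfl,
    LinearMap.toMatrix'_mulVec]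
  simp only [LinearMap.comp_apply, Matrix.mulVecLin_apply]
  rw [klein_spMat_emb5 h2 g v]

theorem spFive_preserves (h2 : (2 : F) ≠ 0)
    (hperf : commutator (Matrix.symplecticGroup (Fin 2) F) = ⊤)
    (g : Matrix.symplecticGroup (Fin 2) F) (v : I5 → F) :
    Cfsg.quadFormOdd 2 F (spFive h2 g *ᵥ v) = Cfsg.quadFormOdd 2 F v := by
  have hdet : (spMat g).det = 1 := by
    let d : Matrix.symplecticGroup (Fin 2) F →* Fˣ :=
      MonoidHom.toHomUnits (Matrix.detMonoidHom.comp spMat)
    have : g ∈ d.ker := Abelianization.commutator_subset_ker d (hperf ▸ Subgroup.mem_top g)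
    exact congrArg Units.val (MonoidHom.mem_ker.1 this)
  rw [← quadFormPlus_emb5, ← quadFormPlus_emb5, emb5_spFive]
  exact klein_sl ⟨spMat g, hdet⟩ _

theorem pomega_five_equiv [Fintype F] (hodd : Odd (Fintype.card F)) :
    Nonempty (Cfsg.POmega F (Cfsg.quadFormOdd 2 F) ≃* Cfsg.PSp 2 F) := by
  classical
  have h2 : (2 : F) ≠ 0 := CfsgLib.SL2.two_ne_zero_iff_odd.2 hodd
  have hq1 : 1 < Fintype.card F := Fintype.one_lt_card
  have hq3 : 3 ≤ Fintype.card F := by
    obtain ⟨k, hk⟩ := hodd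
    omega
  have hperf := CfsgLib.Classical.Symp.commutator_eq_top (F := F) (m := 2) (Or.inr (Or.inl ⟨rfl, hq3⟩))
  let f : Matrix.symplecticGroup (Fin 2) F →* Cfsg.isometryGroup F (Cfsg.quadFormOdd 2 F) :=
    (MonoidHom.toHomUnits (spFive h2)).codRestrict _ fun g => fun u _ => by
      exact spFive_preserves h2 hperf g u
  have hf : f ≠ 1 := by
    intro h
    have h1 : spFive h2 (SymplecticGroup.symJ (Fin 2) F) = 1 :=
      congrArg (fun x : Cfsg.isometryGroup F (Cfsg.quadFormOdd 2 F) => x.1.val)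
        (DFunLike.congr_fun h (SymplecticGroup.symJ (Fin 2) F))
    have e := congrFun (congrFun (congrArg mat6 (emb5_spFive h2 (SymplecticGroup.symJ (Fin 2) F)
      (Pi.single (.inr (.inl 0)) 1))) 0) 1
    rw [h1, one_mulVec, mat6_klein] at e
    simp [mat6, emb5, spMat, SymplecticGroup.symJ, Matrix.J, Matrix.fromBlocks, Matrix.mul_apply,
      Fin.sum_univ_four, finSumFinEquiv, Fin.addCases] at e
  refine perfect_equiv_commutator_quotient hperf
    (CfsgLib.Classical.Symp.isSimpleGroup_quotient_center (by norm_num) hperf) f hf ?_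
  have h5 := card_pomega_odd_of_two_le (F := F) rfl hodd 2 le_rfl
  have hc := Cfsg.Agent.S0246.result (F := F) rfl 2 (by norm_num)
  have heven : Nat.gcd 2 (Fintype.card F - 1) = 2 := by
    refine Nat.gcd_eq_left ?_
    obtain ⟨k, hk⟩ := hodd
    exact ⟨k, by omega⟩
  have hm := Subgroup.card_eq_card_quotient_mul_card_subgroup
    (Subgroup.center (Matrix.symplecticGroup (Fin 2) F))
  rw [hc, heven, CfsgLib.Classical.Symp.card_symplecticGroup, ← h5, mul_comm _ 2] at hm
  exact Nat.eq_of_mul_eq_mul_left two_pos hm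

end CfsgLib.OrthSmall
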