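import Cfsg.Agent.OrthSmall.Common
import Cfsg.Agent.Eq.Def_Classical
import Cfsg.Agent.Classical.Orth.OrderStd
import Cfsg.Agent.Classical.Linear.Generation
import Cfsg.Agent.Classical.Linear.Card

/-!
# `PΩ₄⁺(q) ≅ PSL₂(q) × PSL₂(q)`: two-sided multiplication on `2 × 2` matrices
-/

set_option autoImplicit false

namespace CfsgLib.OrthSmall

open Matrix
open scoped commutatorElement

variable {F : Type*} [Field F]

/-- The index type of the four-dimensional form. -/
abbrev I4 : Type := Fin 2 ⊕ Fin 2

/-- The matrix of a vector. -/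
def mat4 : (I4 → F) →ₗ[F] Matrix (Fin 2) (Fin 2) F where
  toFun v := !![v (.inl 0), v (.inl 1); -v (.inr 1), v (.inr 0)]
  map_add' u v := by ext i j; fin_cases i <;> fin_cases j <;> simp <;> ring
  map_smul' c v := by ext i j; fin_cases i <;> fin_cases j <;> simp

/-- The vector of a matrix. -/
def vec4 : Matrix (Fin 2) (Fin 2) F →ₗ[F] (I4 → F) where
  toFun M := Sum.elim ![M 0 0, M 0 1] ![M 1 1, -M 1 0]
  map_add' M N := by funext i; rcases i with i | i <;> fin_cases i <;> simp <;> ring
  map_smul' c M := by funext i; rcases i with i | i <;> fin_cases i <;> simp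

theorem vec4_mat4 (v : I4 → F) : vec4 (mat4 v) = v := by
  funext i
  rcases i with i | i <;> fin_cases i <;> simp [vec4, mat4]

theorem mat4_vec4 (M : Matrix (Fin 2) (Fin 2) F) : mat4 (vec4 M) = M := by
  ext i j
  fin_cases i <;> fin_cases j <;> simp [vec4, mat4]

theorem quadFormPlus_two (v : I4 → F) : Cfsg.quadFormPlus 2 F v = (mat4 v).det := by
  simp [Cfsg.quadFormPlus, mat4, Matrix.det_fin_two, Fin.sum_univ_two]

/-- Pairs of matrices of equal determinant. -/
def samedet : Subgroup (GL (Fin 2) F × GL (Fin 2) F) :=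
  MonoidHom.eqLocus (Matrix.GeneralLinearGroup.det.comp (MonoidHom.fst _ _))
    (Matrix.GeneralLinearGroup.det.comp (MonoidHom.snd _ _))

theorem mem_samedet {p : GL (Fin 2) F × GL (Fin 2) F} :
    p ∈ (samedet : Subgroup (GL (Fin 2) F × GL (Fin 2) F)) ↔
      Matrix.GeneralLinearGroup.det p.1 = Matrix.GeneralLinearGroup.det p.2 := Iff.rfl

/-- Two-sided multiplication, as a linear map. -/
noncomputable def sideLin (p : GL (Fin 2) F × GL (Fin 2) F) : (I4 → F) →ₗ[F] (I4 → F) :=
  vec4 ∘ₗ LinearMap.mulLeft F p.1.val ∘ₗ LinearMap.mulRight F p.2⁻¹.val ∘ₗ mat4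

theorem sideLin_apply (p : GL (Fin 2) F × GL (Fin 2) F) (v : I4 → F) :
    sideLin p v = vec4 (p.1.val * mat4 v * p.2⁻¹.val) := by
  simp [sideLin, mul_assoc]

/-- Two-sided multiplication, as a matrix. -/
noncomputable def sideMat : GL (Fin 2) F × GL (Fin 2) F →* Matrix I4 I4 F where
  toFun p := LinearMap.toMatrix' (sideLin p)
  map_one' := by
    rw [show sideLin (1 : GL (Fin 2) F × GL (Fin 2) F) = LinearMap.id from LinearMap.ext fun v => by
      simp [sideLin_apply, vec4_mat4]]
    exact LinearMap.toMatrix'_id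
  map_mul' p r := by
    rw [← LinearMap.toMatrix'_comp]
    congr 1
    refine LinearMap.ext fun v => ?_
    rw [LinearMap.comp_apply, sideLin_apply, sideLin_apply, sideLin_apply, mat4_vec4, Prod.fst_mul,
      Prod.snd_mul, _root_.mul_inv_rev, Units.val_mul, Units.val_mul]
    simp only [mul_assoc]

theorem mat4_sideMat (p : GL (Fin 2) F × GL (Fin 2) F) (v : I4 → F) :
    mat4 (sideMat p *ᵥ v) = p.1.val * mat4 v * p.2⁻¹.val := by
  rw [show sideMat p = LinearMap.toMatrix' (sideLin p) from rfl, LinearMap.toMatrix'_mulVec,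
    sideLin_apply, mat4_vec4]

/-- Two-sided multiplication as an isometry. -/
noncomputable def twoSided :
    (samedet : Subgroup (GL (Fin 2) F × GL (Fin 2) F)) →*
      Cfsg.isometryGroup F (Cfsg.quadFormPlus 2 F) :=
  ((MonoidHom.toHomUnits sideMat).comp samedet.subtype).codRestrict _ fun p => fun u _ => by
    show Cfsg.quadFormPlus 2 F (sideMat p.1 *ᵥ u) = Cfsg.quadFormPlus 2 F u
    have hp : (p.1.1.val).det = (p.1.2.val).det := congrArg Units.val (mem_samedet.1 p.2)
    have h1 : (p.1.2.val).det * (p.1.2⁻¹.val).det = 1 := by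
      rw [← Matrix.det_mul, ← Units.val_mul, mul_inv_cancel, Units.val_one, Matrix.det_one]
    rw [quadFormPlus_two, quadFormPlus_two, mat4_sideMat, Matrix.det_mul, Matrix.det_mul, hp]
    linear_combination (mat4 u).det * h1

theorem twoSided_apply (p : (samedet : Subgroup (GL (Fin 2) F × GL (Fin 2) F))) (v : I4 → F) :
    mat4 ((twoSided p).1.val *ᵥ v) = p.1.1.val * mat4 v * p.1.2⁻¹.val := mat4_sideMat p.1 v

theorem mat4_ext {x y : Cfsg.isometryGroup F (Cfsg.quadFormPlus 2 F)}
    (h : ∀ v : I4 → F, mat4 (x.1.val *ᵥ v) = mat4 (y.1.val *ᵥ v)) : x = y :=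
  Subtype.ext (Units.ext (Matrix.ext_iff_mulVec.2 fun v =>
    Function.LeftInverse.injective vec4_mat4 (h v)))

theorem twoSided_eq_one_iff (p : (samedet : Subgroup (GL (Fin 2) F × GL (Fin 2) F))) :
    twoSided p = 1 ↔ p.1.1 = p.1.2 ∧ p.1.1 ∈ Subgroup.center (GL (Fin 2) F) := by
  constructor
  · intro h
    have key : ∀ M : Matrix (Fin 2) (Fin 2) F, p.1.1.val * M * p.1.2⁻¹.val = M := fun M => by
      have := twoSided_apply p (vec4 M)
      rw [h, mat4_vec4, OneMemClass.coe_one, Units.val_one, Matrix.one_mulVec, mat4_vec4] at this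
      exact this.symm
    have h1 : p.1.1 = p.1.2 := by
      have := key 1
      rw [mul_one, ← Units.val_mul] at this
      exact mul_inv_eq_one.1 (Units.ext this)
    refine ⟨h1, Subgroup.mem_center_iff.2 fun g => Units.ext ?_⟩
    have := key g.val
    rw [← h1] at this
    rw [Units.val_mul, Units.val_mul]
    calc g.val * p.1.1.val = p.1.1.val * g.val * p.1.1⁻¹.val * p.1.1.val := by rw [this]
      _ = p.1.1.val * g.val := by
          rw [mul_assoc (p.1.1.val * g.val), Units.inv_mul, mul_one]
  · rintro ⟨h1, h2⟩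
    refine mat4_ext fun v => ?_
    rw [twoSided_apply, ← h1, OneMemClass.coe_one, Units.val_one, Matrix.one_mulVec]
    rw [Matrix.GeneralLinearGroup.center_eq_range_scalar] at h2
    obtain ⟨u, hu⟩ := h2
    rw [← hu]
    have hc : (Matrix.GeneralLinearGroup.scalar (Fin 2) u : GL (Fin 2) F).val * mat4 v =
        mat4 v * (Matrix.GeneralLinearGroup.scalar (Fin 2) u : GL (Fin 2) F).val :=
      (Matrix.scalar_commute (u : F) (Commute.all _) (mat4 v)).eq
    rw [hc, mul_assoc, ← Units.val_mul, mul_inv_cancel, Units.val_one, mul_one]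

/-- Transposition of matrices, as a matrix on vectors. -/
noncomputable def transMat : Matrix I4 I4 F :=
  LinearMap.toMatrix' (vec4 ∘ₗ (Matrix.transposeLinearEquiv (Fin 2) (Fin 2) F F).toLinearMap ∘ₗ mat4)

theorem mat4_transMat (v : I4 → F) : mat4 (transMat *ᵥ v) = (mat4 v)ᵀ := by
  rw [transMat, LinearMap.toMatrix'_mulVec, LinearMap.comp_apply, LinearMap.comp_apply, mat4_vec4]
  rfl

theorem transMat_mul_self : (transMat : Matrix I4 I4 F) * transMat = 1 :=
  Matrix.ext_iff_mulVec.2 fun v => Function.LeftInverse.injective vec4_mat4 (by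
    rw [← Matrix.mulVec_mulVec, mat4_transMat, mat4_transMat, Matrix.transpose_transpose,
      Matrix.one_mulVec])

/-- Transposition as an isometry. -/
noncomputable def transIso : Cfsg.isometryGroup F (Cfsg.quadFormPlus 2 F) :=
  ⟨⟨transMat, transMat, transMat_mul_self, transMat_mul_self⟩, fun u _ => by
    show Cfsg.quadFormPlus 2 F (transMat *ᵥ u) = Cfsg.quadFormPlus 2 F u
    rw [quadFormPlus_two, quadFormPlus_two, mat4_transMat, Matrix.det_transpose]⟩

theorem transIso_apply (v : I4 → F) :
    mat4 ((transIso : Cfsg.isometryGroup F (Cfsg.quadFormPlus 2 F)).1.val *ᵥ v) = (mat4 v)ᵀ :=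
  mat4_transMat v

theorem transIso_not_mem : (transIso : Cfsg.isometryGroup F (Cfsg.quadFormPlus 2 F)) ∉
    (twoSided (F := F)).range := by
  rintro ⟨p, hp⟩
  have key : ∀ M : Matrix (Fin 2) (Fin 2) F, p.1.1.val * M * p.1.2⁻¹.val = Mᵀ := fun M => by
    have := twoSided_apply p (vec4 M)
    rw [hp, transIso_apply, mat4_vec4] at this
    exact this.symm
  have h1 : p.1.1 = p.1.2 := by
    have := key 1
    rw [mul_one, ← Units.val_mul, Matrix.transpose_one] at this
    exact mul_inv_eq_one.1 (Units.ext this)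
  have hmul : ∀ M N : Matrix (Fin 2) (Fin 2) F, (M * N)ᵀ = Mᵀ * Nᵀ := fun M N => by
    rw [← key M, ← key N, ← key (M * N), ← h1]
    calc p.1.1.val * (M * N) * p.1.1⁻¹.val
        = p.1.1.val * M * (p.1.1⁻¹.val * p.1.1.val) * N * p.1.1⁻¹.val := by
          rw [← Units.val_mul, inv_mul_cancel, Units.val_one, mul_one]; simp only [mul_assoc]
      _ = _ := by simp only [mul_assoc]
  have := congrFun (congrFun (hmul !![0, 1; 0, 0] !![0, 0; 1, 0]) 0) 0
  simp [Matrix.mul_apply, Fin.sum_univ_two] at this

/-- The inverse transpose. -/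
noncomputable def contra (g : GL (Fin 2) F) : GL (Fin 2) F :=
  ⟨(g⁻¹.val)ᵀ, (g.val)ᵀ, by
    rw [← Matrix.transpose_mul, ← Units.val_mul, mul_inv_cancel, Units.val_one, Matrix.transpose_one],
    by rw [← Matrix.transpose_mul, ← Units.val_mul, inv_mul_cancel, Units.val_one, Matrix.transpose_one]⟩

theorem det_contra (g : GL (Fin 2) F) :
    Matrix.GeneralLinearGroup.det (contra g) = (Matrix.GeneralLinearGroup.det g)⁻¹ := by
  rw [← map_inv]
  exact Units.ext (Matrix.det_transpose _)

/-- Conjugation of pairs by transposition. -/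
noncomputable def flip (p : (samedet : Subgroup (GL (Fin 2) F × GL (Fin 2) F))) :
    (samedet : Subgroup (GL (Fin 2) F × GL (Fin 2) F)) :=
  ⟨(contra p.1.2, contra p.1.1), by
    rw [mem_samedet, det_contra, det_contra, mem_samedet.1 p.2]⟩

theorem transIso_conj (p : (samedet : Subgroup (GL (Fin 2) F × GL (Fin 2) F))) :
    transIso * twoSided p = twoSided (flip p) * transIso := by
  refine mat4_ext fun v => ?_
  rw [Subgroup.coe_mul, Subgroup.coe_mul, Units.val_mul, Units.val_mul, ← mulVec_mulVec,
    ← mulVec_mulVec, transIso_apply, twoSided_apply, twoSided_apply, transIso_apply,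
    Matrix.transpose_mul, Matrix.transpose_mul, ← mul_assoc]
  rfl

/-- The pairs of determinant one. -/
noncomputable def slPair :
    Matrix.SpecialLinearGroup (Fin 2) F × Matrix.SpecialLinearGroup (Fin 2) F →*
      (samedet : Subgroup (GL (Fin 2) F × GL (Fin 2) F)) :=
  (Matrix.SpecialLinearGroup.toGL.prodMap Matrix.SpecialLinearGroup.toGL).codRestrict _ fun p => by
    rw [mem_samedet]
    exact (Matrix.SpecialLinearGroup.coeToGL_det p.1).trans
      (Matrix.SpecialLinearGroup.coeToGL_det p.2).symm

/-- Pairs of special linear matrices, as isometries. -/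
noncomputable def slTwoSided :
    Matrix.SpecialLinearGroup (Fin 2) F × Matrix.SpecialLinearGroup (Fin 2) F →*
      Cfsg.isometryGroup F (Cfsg.quadFormPlus 2 F) := twoSided.comp slPair

/-- The determinant of a pair. -/
noncomputable def pairDet : (samedet : Subgroup (GL (Fin 2) F × GL (Fin 2) F)) →* Fˣ :=
  Matrix.GeneralLinearGroup.det.comp ((MonoidHom.fst _ _).comp samedet.subtype)

theorem twoSided_mem_of_det_eq_sq (p : (samedet : Subgroup (GL (Fin 2) F × GL (Fin 2) F))) (c : Fˣ)
    (hc : pairDet p = c ^ 2) : twoSided p ∈ (slTwoSided (F := F)).range := by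
  let z : (samedet : Subgroup (GL (Fin 2) F × GL (Fin 2) F)) :=
    ⟨(Matrix.GeneralLinearGroup.scalar (Fin 2) c⁻¹, Matrix.GeneralLinearGroup.scalar (Fin 2) c⁻¹),
      mem_samedet.2 rfl⟩
  have hz : twoSided z = 1 := (twoSided_eq_one_iff z).2 ⟨rfl, by
    rw [Matrix.GeneralLinearGroup.center_eq_range_scalar]
    exact ⟨c⁻¹, rfl⟩⟩
  have hdz : ∀ g : GL (Fin 2) F, Matrix.GeneralLinearGroup.det g = c ^ 2 →
      Matrix.GeneralLinearGroup.det (Matrix.GeneralLinearGroup.scalar (Fin 2) c⁻¹ * g) = 1 := by
    intro g hg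
    rw [map_mul, hg, Units.ext_iff, Units.val_mul, Matrix.GeneralLinearGroup.val_det_apply]
    simp [Matrix.det_fin_two]
  obtain ⟨a, ha⟩ := CfsgLib.Classical.Linear.mem_range_toGL.2 (hdz p.1.1 hc)
  obtain ⟨b, hb⟩ := CfsgLib.Classical.Linear.mem_range_toGL.2
    (hdz p.1.2 ((mem_samedet.1 p.2).symm.trans hc))
  refine ⟨(a, b), ?_⟩
  rw [← one_mul (twoSided p), ← hz, ← map_mul]
  exact congrArg twoSided (Subtype.ext (Prod.ext ha hb))

theorem range_slTwoSided [Fintype F] (hF : 3 ≤ Fintype.card F) :
    (slTwoSided (F := F)).range = commutator (Cfsg.isometryGroup F (Cfsg.quadFormPlus 2 F)) := by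
  classical
  obtain ⟨a, ha0, ha1⟩ : ∃ a : F, a ≠ 0 ∧ a ≠ 1 := by
    obtain ⟨a, ha⟩ : ∃ a : F, a ∉ ({0, 1} : Finset F) := by
      by_contra h
      push Not at h
      have := (Finset.card_le_card (fun z _ => h z : (Finset.univ : Finset F) ⊆ _)).trans
        Finset.card_le_two
      rw [Finset.card_univ] at this
      omega
    simp only [Finset.mem_insert, Finset.mem_singleton, not_or] at ha
    exact ⟨a, ha.1, ha.2⟩
  apply le_antisymm
  · have hd : ∀ (i j : Fin 2) (hij : i ≠ j) (c : F),
        ∃ (d : GL (Fin 2) F) (x : Matrix.SpecialLinearGroup (Fin 2) F),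
          Matrix.SpecialLinearGroup.toGL (Matrix.SpecialLinearGroup.transvection hij c) =
            d * Matrix.SpecialLinearGroup.toGL x * d⁻¹ *
              (Matrix.SpecialLinearGroup.toGL x)⁻¹ := by
      intro i j hij c
      have hdet : IsUnit (Matrix.diagonal (Function.update (1 : Fin 2 → F) i a)).det := by
        rw [Matrix.det_diagonal, Finset.prod_update_of_mem (Finset.mem_univ i)]
        simpa using ha0
      refine ⟨Matrix.GeneralLinearGroup.mk'' _ hdet,
        Matrix.SpecialLinearGroup.transvection hij (c / (a - 1)), ?_⟩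
      have hconj : ∀ x : F, (Matrix.GeneralLinearGroup.mk'' _ hdet : GL (Fin 2) F) *
          Matrix.SpecialLinearGroup.toGL (Matrix.SpecialLinearGroup.transvection hij x) =
          Matrix.SpecialLinearGroup.toGL (Matrix.SpecialLinearGroup.transvection hij (a * x)) *
            Matrix.GeneralLinearGroup.mk'' _ hdet := by
        intro x
        apply Units.ext
        change Matrix.diagonal (Function.update (1 : Fin 2 → F) i a) *
            (Matrix.SpecialLinearGroup.transvection hij x : Matrix.SpecialLinearGroup (Fin 2) F).1 =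
          (Matrix.SpecialLinearGroup.transvection hij (a * x) : Matrix.SpecialLinearGroup (Fin 2) F).1
            * Matrix.diagonal (Function.update (1 : Fin 2 → F) i a)
        ext k l
        rw [Matrix.diagonal_mul, Matrix.mul_diagonal,
          CfsgLib.Classical.Linear.transvection_apply, CfsgLib.Classical.Linear.transvection_apply]
        fin_cases i <;> fin_cases j <;> fin_cases k <;> fin_cases l <;>
          first
          | exact absurd rfl hij
          | simp
      have hb : a * (c / (a - 1)) = c + c / (a - 1) := by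
        field_simp [sub_ne_zero.2 ha1]
        ring
      rw [hconj, mul_inv_cancel_right, hb, Matrix.SpecialLinearGroup.transvection_add, map_mul,
        mul_inv_cancel_right]
    have hstep : ∀ p r : (samedet : Subgroup (GL (Fin 2) F × GL (Fin 2) F)),
        twoSided (p * r * p⁻¹ * r⁻¹) ∈
          commutator (Cfsg.isometryGroup F (Cfsg.quadFormPlus 2 F)) := by
      intro p r
      rw [map_mul, map_mul, map_mul, map_inv, map_inv, ← commutatorElement_def, commutator_def]
      exact Subgroup.commutator_mem_commutator (Subgroup.mem_top _) (Subgroup.mem_top _)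
    rintro _ ⟨⟨s, t⟩, rfl⟩
    have hmem : ∀ e : Matrix.SpecialLinearGroup (Fin 2) F →*
        Matrix.SpecialLinearGroup (Fin 2) F × Matrix.SpecialLinearGroup (Fin 2) F,
        (∀ (d : GL (Fin 2) F) (x y : Matrix.SpecialLinearGroup (Fin 2) F),
          Matrix.SpecialLinearGroup.toGL y = d * Matrix.SpecialLinearGroup.toGL x * d⁻¹ *
            (Matrix.SpecialLinearGroup.toGL x)⁻¹ →
          slPair (e y) = ⟨(d, d), mem_samedet.2 rfl⟩ * slPair (e x) *
            (⟨(d, d), mem_samedet.2 rfl⟩ : (samedet : Subgroup (GL (Fin 2) F × GL (Fin 2) F)))⁻¹ *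
            (slPair (e x))⁻¹) →
        ∀ y, slTwoSided (e y) ∈ commutator (Cfsg.isometryGroup F (Cfsg.quadFormPlus 2 F)) := by
      intro e he y
      have htop : (commutator (Cfsg.isometryGroup F (Cfsg.quadFormPlus 2 F))).comap
          (slTwoSided.comp e) = ⊤ :=
        CfsgLib.Classical.Linear.eq_top_of_transvection_mem fun i j hij c => by
          obtain ⟨d, x, hx⟩ := hd i j hij c
          rw [Subgroup.mem_comap]
          show twoSided (slPair (e _)) ∈ _
          rw [he d x _ hx]
          exact hstep _ _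
      exact (htop ▸ Subgroup.mem_top y : y ∈ Subgroup.comap _ _)
    rw [show ((s, t) : Matrix.SpecialLinearGroup (Fin 2) F × Matrix.SpecialLinearGroup (Fin 2) F) =
      (MonoidHom.inl _ _) s * (MonoidHom.inr _ _) t by simp, map_mul]
    refine mul_mem (hmem (MonoidHom.inl _ _) ?_ s) (hmem (MonoidHom.inr _ _) ?_ t)
    · intro d x y h
      refine Subtype.ext (Prod.ext h ?_)
      show Matrix.SpecialLinearGroup.toGL 1 = d * Matrix.SpecialLinearGroup.toGL 1 * d⁻¹ *
        (Matrix.SpecialLinearGroup.toGL 1)⁻¹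
      simp
    · intro d x y h
      refine Subtype.ext (Prod.ext ?_ h)
      show Matrix.SpecialLinearGroup.toGL 1 = d * Matrix.SpecialLinearGroup.toGL 1 * d⁻¹ *
        (Matrix.SpecialLinearGroup.toGL 1)⁻¹
      simp
  · set N := (slTwoSided (F := F)).range with hN
    have hidx : (twoSided (F := F)).range.index = 2 := by
      have hpk : (pairDet (F := F)).ker = (slPair (F := F)).range := by
        ext p
        constructor
        · intro hp
          obtain ⟨s, hs⟩ := CfsgLib.Classical.Linear.mem_range_toGL.2 (MonoidHom.mem_ker.1 hp)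
          obtain ⟨t, ht⟩ := CfsgLib.Classical.Linear.mem_range_toGL.2
            ((mem_samedet.1 p.2).symm.trans (MonoidHom.mem_ker.1 hp))
          exact ⟨(s, t), Subtype.ext (Prod.ext hs ht)⟩
        · rintro ⟨q, rfl⟩
          exact Matrix.SpecialLinearGroup.coeToGL_det q.1
      have hsl : Function.Injective (slPair (F := F)) := fun x y h => by
        have h' := congrArg Subtype.val h
        exact Prod.ext (Matrix.SpecialLinearGroup.toGL_injective (congrArg Prod.fst h'))
          (Matrix.SpecialLinearGroup.toGL_injective (congrArg Prod.snd h'))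
      have hsurj : Function.Surjective (pairDet (F := F)) := fun u => by
        obtain ⟨g, hg⟩ := Matrix.GeneralLinearGroup.det_surjective (n := Fin 2) u
        exact ⟨⟨(g, g), mem_samedet.2 rfl⟩, hg⟩
      have hD := (pairDet (F := F)).ker.card_mul_index
      rw [Subgroup.index_ker, MonoidHom.range_eq_top_of_surjective _ hsurj, Subgroup.card_top, hpk,
        ← Nat.card_congr (MonoidHom.ofInjective hsl).toEquiv, Nat.card_prod] at hD
      have hk : Nat.card (twoSided (F := F)).ker = Nat.card Fˣ := by
        have hc : Nat.card (Subgroup.center (GL (Fin 2) F)) = Nat.card Fˣ := by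
          rw [Matrix.GeneralLinearGroup.center_eq_range_scalar]
          refine (Nat.card_congr (MonoidHom.ofInjective fun x y h => ?_).toEquiv).symm
          have h' : (Matrix.GeneralLinearGroup.scalar (Fin 2) x : GL (Fin 2) F).val 0 0 =
              (Matrix.GeneralLinearGroup.scalar (Fin 2) y : GL (Fin 2) F).val 0 0 := by rw [h]
          exact Units.ext (by simpa using h')
        rw [← hc]
        refine Nat.card_congr
          { toFun := fun p => ⟨p.1.1.1, ((twoSided_eq_one_iff p.1).1 p.2).2⟩
            invFun := fun z => ⟨⟨(z.1, z.1), mem_samedet.2 rfl⟩,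
              (twoSided_eq_one_iff _).2 ⟨rfl, z.2⟩⟩
            left_inv := fun p => Subtype.ext (Subtype.ext (Prod.ext rfl
              ((twoSided_eq_one_iff p.1).1 p.2).1))
            right_inv := fun z => rfl }
      have h3 := (twoSided (F := F)).ker.card_mul_index
      rw [Subgroup.index_ker, hk, ← hD, mul_comm (Nat.card Fˣ)] at h3
      have h4 := (twoSided (F := F)).range.card_mul_index
      rw [Nat.eq_of_mul_eq_mul_right Nat.card_pos h3, CfsgLib.Classical.Linear.card_sl_two,
        CfsgLib.Classical.Orth.card_isometryGroup_plus 1] at h4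
      simp only [Nat.reduceAdd, mul_one, CfsgLib.Classical.Orth.evenProd, Finset.prod_range_one] at h4
      have hpos : 0 < Fintype.card F * (Fintype.card F ^ 2 - 1) :=
        Nat.mul_pos Fintype.card_pos
          (Nat.sub_pos_of_lt (Nat.one_lt_pow two_ne_zero Fintype.one_lt_card))
      apply Nat.eq_of_mul_eq_mul_left (Nat.mul_pos hpos hpos)
      rw [h4]
      ring
    have hsplit : ∀ x : Cfsg.isometryGroup F (Cfsg.quadFormPlus 2 F),
        ∃ p, x = twoSided p ∨ x = transIso * twoSided p := by
      intro x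
      by_cases hx : x ∈ (twoSided (F := F)).range
      · obtain ⟨p, rfl⟩ := hx
        exact ⟨p, Or.inl rfl⟩
      · obtain ⟨p, hp⟩ := (Subgroup.mul_mem_iff_of_index_two hidx (a := transIso⁻¹) (b := x)).2
          (iff_of_false (fun h => transIso_not_mem (inv_mem_iff.1 h)) hx)
        exact ⟨p, Or.inr (by rw [hp, mul_inv_cancel_left])⟩
    have hgen : ∀ p : (samedet : Subgroup (GL (Fin 2) F × GL (Fin 2) F)), pairDet p = 1 →
        twoSided p ∈ N := fun p hp => twoSided_mem_of_det_eq_sq p 1 (by rw [hp, one_pow])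
    have hflip : ∀ p : (samedet : Subgroup (GL (Fin 2) F × GL (Fin 2) F)), pairDet (flip p) = (pairDet p)⁻¹ := fun p => by
      show Matrix.GeneralLinearGroup.det (contra p.1.2) = (Matrix.GeneralLinearGroup.det p.1.1)⁻¹
      rw [det_contra, mem_samedet.1 p.2]
    have hτ : ∀ p, ∃ r, transIso * twoSided p * transIso⁻¹ = twoSided r ∧
        pairDet r = (pairDet p)⁻¹ := fun p =>
      ⟨flip p, by rw [transIso_conj, mul_inv_cancel_right], hflip p⟩
    have hnorm : N.Normal := ⟨fun n hn x => by
      obtain ⟨⟨s, t⟩, rfl⟩ := hn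
      have hdet1 : pairDet (slPair (s, t)) = 1 := Matrix.SpecialLinearGroup.coeToGL_det s
      have hin : ∀ p, twoSided p * twoSided (slPair (s, t)) * (twoSided p)⁻¹ ∈ N := fun p => by
        rw [← map_inv, ← map_mul, ← map_mul]
        exact hgen _ (by rw [map_mul, map_mul, map_inv, hdet1, mul_one, mul_inv_cancel])
      obtain ⟨p, rfl | rfl⟩ := hsplit x
      · exact hin p
      · obtain ⟨r, hr, hrd⟩ := hτ (p * slPair (s, t) * p⁻¹)
        rw [show transIso * twoSided p * slTwoSided (s, t) * (transIso * twoSided p)⁻¹ =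
          twoSided r by
            rw [← hr, map_mul, map_mul, map_inv]
            simp only [slTwoSided, MonoidHom.comp_apply, _root_.mul_inv_rev, mul_assoc]]
        exact hgen r (by rw [hrd, map_mul, map_mul, map_inv, hdet1, mul_one, mul_inv_cancel, inv_one])⟩
    rw [← QuotientGroup.ker_mk' N]
    have hab : ∀ x y, (QuotientGroup.mk' N) (x * y) = (QuotientGroup.mk' N) (y * x) := by
      let π := QuotientGroup.mk' N
      have hpp : ∀ p r, π (twoSided p) * π (twoSided r) = π (twoSided r) * π (twoSided p) := by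
        intro p r
        rw [← map_mul, ← map_mul, ← map_mul, ← map_mul, QuotientGroup.mk'_eq_mk']
        refine ⟨twoSided ((p * r)⁻¹ * (r * p)), hgen _ ?_, ?_⟩
        · rw [map_mul, map_inv, map_mul, map_mul, mul_comm (pairDet r), inv_mul_cancel]
        · rw [← map_mul, mul_inv_cancel_left]
      have hpt : ∀ p, π (twoSided p) * π transIso = π transIso * π (twoSided p) := by
        intro p
        rw [← map_mul, ← map_mul, transIso_conj, map_mul, map_mul, mul_left_inj,
          QuotientGroup.mk'_eq_mk']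
        refine ⟨twoSided (p⁻¹ * flip p), twoSided_mem_of_det_eq_sq _ (pairDet p)⁻¹ ?_, ?_⟩
        · rw [map_mul, map_inv, hflip, sq]
        · rw [← map_mul, mul_inv_cancel_left]
      intro x y
      show π (x * y) = π (y * x)
      obtain ⟨p, rfl | rfl⟩ := hsplit x <;> obtain ⟨r, rfl | rfl⟩ := hsplit y <;>
        simp only [map_mul]
      · exact hpp p r
      · rw [← mul_assoc, hpt, mul_assoc, hpp, mul_assoc]
      · rw [mul_assoc, hpp, ← mul_assoc, ← hpt, mul_assoc]
      · rw [mul_assoc, mul_assoc, ← mul_assoc (π (twoSided p)), hpt, mul_assoc, hpp,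
          ← mul_assoc (π (twoSided r)), hpt, mul_assoc]
    rw [commutator_def, Subgroup.commutator_le]
    intro x _ y _
    rw [MonoidHom.mem_ker, commutatorElement_def, mul_assoc (x * y), map_mul, hab x y, ← map_mul]
    group
    exact map_one _

theorem pomega_four_plus_equiv [Fintype F] (hF : 3 ≤ Fintype.card F) :
    Nonempty (Cfsg.POmega F (Cfsg.quadFormPlus 2 F) ≃*
      Matrix.ProjectiveSpecialLinearGroup (Fin 2) F × Matrix.ProjectiveSpecialLinearGroup (Fin 2) F) := by
  have hker : ∀ x : Matrix.SpecialLinearGroup (Fin 2) F × Matrix.SpecialLinearGroup (Fin 2) F,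
      x ∈ (slTwoSided (F := F)).ker →
      x.1 = x.2 ∧ x.1 ∈ Subgroup.center (Matrix.SpecialLinearGroup (Fin 2) F) := fun x hx => by
    obtain ⟨h1, h2⟩ := (twoSided_eq_one_iff _).1 hx
    exact ⟨Matrix.SpecialLinearGroup.toGL_injective h1,
      (Matrix.SpecialLinearGroup.toGL_mem_center_iff x.1).1 h2⟩
  have hprod : ∀ x : Matrix.SpecialLinearGroup (Fin 2) F × Matrix.SpecialLinearGroup (Fin 2) F,
      x.1 ∈ Subgroup.center (Matrix.SpecialLinearGroup (Fin 2) F) →
      x.2 ∈ Subgroup.center (Matrix.SpecialLinearGroup (Fin 2) F) →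
      x ∈ Subgroup.center _ := fun x h1 h2 => Subgroup.mem_center_iff.2 fun y =>
    Prod.ext (Subgroup.mem_center_iff.1 h1 y.1) (Subgroup.mem_center_iff.1 h2 y.2)
  have hcent : ∀ z : Matrix.SpecialLinearGroup (Fin 2) F,
      (∀ t, z * t * z⁻¹ * t⁻¹ ∈ Subgroup.center (Matrix.SpecialLinearGroup (Fin 2) F)) →
      z ∈ Subgroup.center (Matrix.SpecialLinearGroup (Fin 2) F) := fun z hz =>
    mem_center_of_commute_up_to_sign fun t => by
      rcases CfsgLib.SL2.mem_center_iff'.1 (hz t) with h | h
      · exact Or.inl (mul_inv_eq_one.1 h)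
      · exact Or.inr (by rw [mul_inv_eq_iff_eq_mul.1 h, neg_one_mul])
  obtain ⟨e⟩ := quotient_center_equiv (slTwoSided (F := F)) (range_slTwoSided hF)
    (fun x hx => hprod x (hker x hx).2 ((hker x hx).1 ▸ (hker x hx).2)) (fun s hs => hprod s
      (hcent _ fun t => (hker _ (hs (t, 1))).2)
      (hcent _ fun t => by
        obtain ⟨h1, h2⟩ := hker _ (hs (1, t))
        rw [h1] at h2; exact h2))
  let f : Matrix.SpecialLinearGroup (Fin 2) F × Matrix.SpecialLinearGroup (Fin 2) F →*
      Matrix.ProjectiveSpecialLinearGroup (Fin 2) F × Matrix.ProjectiveSpecialLinearGroup (Fin 2) F :=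
    (QuotientGroup.mk' _).prodMap (QuotientGroup.mk' _)
  have hf : Function.Surjective f := Function.Surjective.prodMap (QuotientGroup.mk'_surjective _)
    (QuotientGroup.mk'_surjective _)
  have hk : f.ker = Subgroup.center _ := by
    ext x
    rw [MonoidHom.mem_ker]
    constructor
    · intro h
      exact hprod x ((QuotientGroup.eq_one_iff _).1 (congrArg Prod.fst h))
        ((QuotientGroup.eq_one_iff _).1 (congrArg Prod.snd h))
    · intro h
      refine Prod.ext ((QuotientGroup.eq_one_iff _).2 ?_) ((QuotientGroup.eq_one_iff _).2 ?_)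
      · exact Subgroup.mem_center_iff.2 fun y =>
          congrArg Prod.fst (Subgroup.mem_center_iff.1 h (y, 1))
      · exact Subgroup.mem_center_iff.2 fun y =>
          congrArg Prod.snd (Subgroup.mem_center_iff.1 h (1, y))
  exact ⟨e.trans ((QuotientGroup.quotientMulEquivOfEq hk).symm.trans
    (QuotientGroup.quotientKerEquivOfSurjective f hf))⟩

end CfsgLib.OrthSmall
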