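import Cfsg.Agent.OrthSmall.Klein
import Cfsg.Agent.Classical.Orth.OrderStd
import Cfsg.Agent.Classical.Orth.CentreOmega
import Cfsg.Agent.S0790
import Cfsg.Agent.S0791
import Cfsg.Agent.Classical.Linear.Card
import Cfsg.Agent.Classical.Linear.Simple

/-!
# `PΩ₆⁺(q) ≅ PSL₄(q)`
-/

set_option autoImplicit false

namespace CfsgLib.OrthSmall

open CfsgLib.Classical.Orth CfsgLib.OrthGeo

theorem card_pomega_plus_of_three_le {F : Type*} [Field F] [Fintype F] {q : ℕ}
    (hF : Fintype.card F = q) (m : ℕ) (hm : 3 ≤ m) :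
    Nat.gcd 4 (q ^ m - 1) * Nat.card (Cfsg.POmega F (Cfsg.quadFormPlus m F)) =
      q ^ (m * (m - 1)) * (q ^ m - 1) * ∏ i ∈ Finset.range (m - 1), (q ^ (2 * (i + 1)) - 1) := by
  classical
  have hm1 : 1 ≤ m := by omega
  have hcard : Nat.card (Cfsg.isometryGroup F (Cfsg.quadFormPlus m F)) =
      2 * (q ^ (m * (m - 1)) * (q ^ m - 1) * ∏ i ∈ Finset.range (m - 1), (q ^ (2 * (i + 1)) - 1)) := by
    subst hF
    obtain ⟨k, rfl⟩ : ∃ k, m = k + 1 := ⟨m - 1, by omega⟩
    rw [card_isometryGroup_plus]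
    simp only [evenProd, Nat.add_sub_cancel]
    ring
  have hN := isNondegQF_quadFormPlus (F := F) m
  have hn : 5 ≤ Fintype.card (Fin m ⊕ Fin m) := by simp; omega
  have hexc : ¬ (Nat.card F = 2 ∧ Fintype.card (Fin m ⊕ Fin m) = 4) := fun h => by omega
  have h := card_pOmega_mul hN
  rw [hcard] at h
  have hq1 : 1 ≤ q := hF ▸ Fintype.card_pos
  have hp : 1 ≤ q ^ m := Nat.one_le_pow _ _ hq1
  by_cases h2 : (2 : F) = 0
  · rw [(card_center_omega hN hn).1 (Or.inr h2), mul_one, index_omega_even hN h2 (by omega) hexc] at h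
    have h0 := FiniteField.even_card_of_char_two (F := F)
      (CharP.ringChar_of_prime_eq_zero Nat.prime_two (by simpa using h2))
    have hev : q ^ m % 2 = 0 := by
      rw [Nat.pow_mod, ← hF, h0, zero_pow (by omega), Nat.zero_mod]
    have hg : Nat.gcd 4 (q ^ m - 1) = 1 := by
      have : (q ^ m - 1) % 2 = 1 := by omega
      rw [Nat.gcd_rec, Nat.gcd_rec]
      rcases (show (q ^ m - 1) % 4 = 1 ∨ (q ^ m - 1) % 4 = 3 by omega) with e | e <;> rw [e] <;> decide
    rw [hg]; omega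
  · have hodd : Odd q := by
      rw [Nat.odd_iff, ← hF]
      exact FiniteField.odd_card_of_char_ne_two (fun hc => h2 (by
        have := ringChar.Nat.cast_ringChar (R := F)
        rw [hc] at this
        exact_mod_cast this))
    have hiff := Cfsg.Agent.S0790.result hF hodd m hm1
    rw [index_omega_odd hN h2 (by omega)] at h
    have hpo : q ^ m % 2 = 1 := Nat.odd_iff.1 hodd.pow
    by_cases h1 : q ^ m % 4 = 1
    · rw [(card_center_omega hN hn).2 (hiff.2 h1) h2] at h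
      have hg : Nat.gcd 4 (q ^ m - 1) = 4 := Nat.gcd_eq_left (by omega)
      rw [hg]; omega
    · rw [(card_center_omega hN hn).1 (Or.inl (fun hh => h1 (hiff.1 hh)))] at h
      have hg : Nat.gcd 4 (q ^ m - 1) = 2 := by
        rw [Nat.gcd_rec, show (q ^ m - 1) % 4 = 2 by omega]; rfl
      rw [hg]; omega

theorem gcd_four_cube (q : ℕ) (hq : 1 ≤ q) : Nat.gcd 4 (q ^ 3 - 1) = Nat.gcd 4 (q - 1) := by
  obtain ⟨r, rfl⟩ : ∃ r, q = r + 1 := ⟨q - 1, by omega⟩
  rw [Nat.add_sub_cancel,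
    show (r + 1) ^ 3 - 1 = r * (r ^ 2 + 3 * r + 3) from Nat.sub_eq_of_eq_add (by ring)]
  rcases Nat.even_or_odd r with he | ho
  · have hc : Nat.Coprime (r ^ 2 + 3 * r + 3) 4 := by
      obtain ⟨k, rfl⟩ := he
      show Nat.Coprime _ (2 ^ 2)
      refine Nat.Coprime.pow_right 2 (Nat.coprime_two_right.2 ⟨2 * k ^ 2 + 3 * k + 1, by ring⟩)
    exact Nat.Coprime.gcd_mul_right_cancel_right r hc
  · have h1 : Nat.Coprime 4 r := by
      show Nat.Coprime (2 ^ 2) r
      exact Nat.Coprime.pow_left 2 (Nat.coprime_two_left.2 ho)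
    have h2 : Nat.Coprime 4 (r ^ 2 + 3 * r + 3) := by
      obtain ⟨k, rfl⟩ := ho
      show Nat.Coprime (2 ^ 2) _
      exact Nat.Coprime.pow_left 2 (Nat.coprime_two_left.2 ⟨2 * k ^ 2 + 5 * k + 3, by ring⟩)
    rw [(Nat.Coprime.mul_right h1 h2).gcd_eq_one, h1.gcd_eq_one]

theorem pomega_six_plus_equiv {F : Type*} [Field F] [Fintype F] :
    Nonempty (Cfsg.POmega F (Cfsg.quadFormPlus 3 F) ≃*
      Matrix.ProjectiveSpecialLinearGroup (Fin 4) F) := by
  classical
  haveI : Nontrivial (Fin 4) := inferInstance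
  refine perfect_equiv_commutator_quotient
    (CfsgLib.Classical.Linear.commutator_sl_eq_top_of_three_le (by simp))
    (CfsgLib.Classical.Linear.isSimpleGroup_psl_of_three_le (by simp)) kleinHom kleinHom_ne_one ?_
  set q := Fintype.card F with hq
  have hq1 : 1 < q := Fintype.one_lt_card
  have h1 := card_pomega_plus_of_three_le (F := F) (q := q) rfl 3 le_rfl
  have h2 := CfsgLib.Classical.Linear.card_psl (F := F) 4 (by norm_num)
  rw [← hq] at h2
  rw [gcd_four_cube q hq1.le] at h1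
  simp only [Finset.prod_range_succ, Finset.prod_range_zero, Fin.prod_univ_four, Nat.reduceSub,
    Nat.reduceMul, Nat.reduceAdd, one_mul, Fin.val_zero, Fin.val_one, Fin.val_two, pow_zero,
    pow_one] at h1 h2
  have hg : 0 < Nat.gcd 4 (q - 1) := Nat.gcd_pos_of_pos_left _ (by norm_num)
  show Nat.card (Cfsg.POmega F (Cfsg.quadFormPlus 3 F)) =
    Nat.card (Matrix.ProjectiveSpecialLinearGroup (Fin 4) F)
  apply Nat.eq_of_mul_eq_mul_left (Nat.mul_pos hg (show 0 < q - 1 by omega))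
  rw [mul_assoc (Nat.gcd 4 (q - 1)) (q - 1), mul_left_comm (Nat.gcd 4 (q - 1)) (q - 1), h1,
    mul_assoc (Nat.gcd 4 (q - 1)) (q - 1), h2]
  have e1 : q ^ 4 - q = q * (q ^ 3 - 1) := by rw [Nat.mul_sub_one, ← pow_succ']
  have e2 : q ^ 4 - q ^ 2 = q ^ 2 * (q ^ 2 - 1) := by rw [Nat.mul_sub_one, ← pow_add]
  have e3 : q ^ 4 - q ^ 3 = q ^ 3 * (q - 1) := by rw [Nat.mul_sub_one, ← pow_succ]
  rw [show ((3 : Fin 4) : ℕ) = 3 from rfl, e1, e2, e3]
  ring

end CfsgLib.OrthSmall
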