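import Cfsg.Agent.OrthSmall.Common
import Cfsg.Agent.Eq.Def_Classical
import Cfsg.Agent.S0286
import Cfsg.Agent.S0264
import Cfsg.Agent.Classical.Linear.Card

/-!
# `PΩ₃(q) ≅ PSL₂(q)`: conjugation on trace-zero matrices
-/

set_option autoImplicit false

namespace CfsgLib.OrthSmall

open Matrix
open scoped commutatorElement

variable {F : Type*} [Field F]

/-- The index type of the three-dimensional form. -/
abbrev I3 : Type := Unit ⊕ (Fin 1 ⊕ Fin 1)

/-- The trace-zero matrix of a vector. -/
def mat3 : (I3 → F) →ₗ[F] Matrix (Fin 2) (Fin 2) F where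
  toFun v := !![v (.inl ()), v (.inr (.inl 0)); v (.inr (.inr 0)), -v (.inl ())]
  map_add' u v := by ext i j; fin_cases i <;> fin_cases j <;> simp <;> ring
  map_smul' c v := by ext i j; fin_cases i <;> fin_cases j <;> simp

/-- The vector of a matrix. -/
def vec3 : Matrix (Fin 2) (Fin 2) F →ₗ[F] (I3 → F) where
  toFun M := Sum.elim (fun _ => M 0 0) (Sum.elim (fun _ => M 0 1) (fun _ => M 1 0))
  map_add' M N := by funext i; rcases i with _ | _ | _ <;> simp
  map_smul' c M := by funext i; rcases i with _ | _ | _ <;> simp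

theorem vec3_mat3 (v : I3 → F) : vec3 (mat3 v) = v := by
  funext i
  rcases i with ⟨⟩ | i | i
  · simp [vec3, mat3]
  · fin_cases i; simp [vec3, mat3]
  · fin_cases i; simp [vec3, mat3]

theorem mat3_vec3 {M : Matrix (Fin 2) (Fin 2) F} (h : M.trace = 0) : mat3 (vec3 M) = M := by
  rw [Matrix.trace_fin_two] at h
  ext i j
  fin_cases i <;> fin_cases j <;> simp [vec3, mat3]
  linear_combination -h

theorem trace_mat3 (v : I3 → F) : (mat3 v).trace = 0 := by
  simp [mat3, Matrix.trace_fin_two]

theorem quadFormOdd_one (v : I3 → F) : Cfsg.quadFormOdd 1 F v = -(mat3 v).det := by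
  simp [Cfsg.quadFormOdd, mat3, Matrix.det_fin_two]
  ring

theorem trace_conj_units (g : GL (Fin 2) F) (M : Matrix (Fin 2) (Fin 2) F) :
    (g.val * M * g⁻¹.val).trace = M.trace := by
  rw [Matrix.trace_mul_comm, ← mul_assoc, ← Units.val_mul, inv_mul_cancel, Units.val_one, one_mul]

/-- Conjugation on trace-zero matrices, as a linear map. -/
noncomputable def conjLin (g : GL (Fin 2) F) : (I3 → F) →ₗ[F] (I3 → F) :=
  vec3 ∘ₗ LinearMap.mulLeft F g.val ∘ₗ LinearMap.mulRight F g⁻¹.val ∘ₗ mat3

theorem conjLin_apply (g : GL (Fin 2) F) (v : I3 → F) :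
    conjLin g v = vec3 (g.val * mat3 v * g⁻¹.val) := by
  simp [conjLin, mul_assoc]

/-- Conjugation on trace-zero matrices, as a matrix. -/
noncomputable def conjMat : GL (Fin 2) F →* Matrix I3 I3 F where
  toFun g := LinearMap.toMatrix' (conjLin g)
  map_one' := by
    rw [show conjLin (1 : GL (Fin 2) F) = LinearMap.id from LinearMap.ext fun v => by
      simp [conjLin_apply, vec3_mat3]]
    exact LinearMap.toMatrix'_id
  map_mul' g h := by
    rw [← LinearMap.toMatrix'_comp]
    congr 1
    refine LinearMap.ext fun v => ?_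
    rw [LinearMap.comp_apply, conjLin_apply, conjLin_apply, conjLin_apply,
      mat3_vec3 (by rw [trace_conj_units, trace_mat3]), _root_.mul_inv_rev, Units.val_mul, Units.val_mul]
    simp only [mul_assoc]

theorem mat3_conjMat (g : GL (Fin 2) F) (v : I3 → F) :
    mat3 (conjMat g *ᵥ v) = g.val * mat3 v * g⁻¹.val := by
  rw [show conjMat g = LinearMap.toMatrix' (conjLin g) from rfl, LinearMap.toMatrix'_mulVec,
    conjLin_apply, mat3_vec3 (by rw [trace_conj_units, trace_mat3])]

/-- Conjugation as an isometry. -/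
noncomputable def adjoint :
    GL (Fin 2) F →* Cfsg.isometryGroup F (Cfsg.quadFormOdd 1 F) :=
  (MonoidHom.toHomUnits conjMat).codRestrict _ fun g => fun u _ => by
    show Cfsg.quadFormOdd 1 F (conjMat g *ᵥ u) = Cfsg.quadFormOdd 1 F u
    rw [quadFormOdd_one, quadFormOdd_one, mat3_conjMat, Matrix.det_units_conj]

theorem adjoint_apply (g : GL (Fin 2) F) (v : I3 → F) :
    mat3 ((adjoint g).1.val *ᵥ v) = g.val * mat3 v * g⁻¹.val := mat3_conjMat g v

theorem commute_of_adjoint_eq {g : GL (Fin 2) F} {c : F}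
    (h : ∀ v : I3 → F, (adjoint g).1.val *ᵥ v = c • v) {M : Matrix (Fin 2) (Fin 2) F}
    (hM : M.trace = 0) : g.val * M = c • (M * g.val) := by
  have h' := adjoint_apply g (vec3 M)
  rw [h, map_smul, mat3_vec3 hM] at h'
  calc g.val * M = g.val * M * g⁻¹.val * g.val := by
        rw [mul_assoc (g.val * M), ← Units.val_mul, inv_mul_cancel, Units.val_one, mul_one]
    _ = _ := by rw [← h', Matrix.smul_mul]

theorem adjoint_ker : (adjoint (F := F)).ker = Subgroup.center (GL (Fin 2) F) := by
  ext g
  constructor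
  · intro hg
    have h1 : ∀ v : I3 → F, (adjoint g).1.val *ᵥ v = (1 : F) • v := fun v => by
      rw [MonoidHom.mem_ker.1 hg, one_smul]
      exact Matrix.one_mulVec v
    have e1 := commute_of_adjoint_eq h1 (M := !![0, 1; 0, 0]) (by simp [Matrix.trace_fin_two])
    have e2 := commute_of_adjoint_eq h1 (M := !![0, 0; 1, 0]) (by simp [Matrix.trace_fin_two])
    have a10 := congrFun (congrFun e1 0) 0
    have a00 := congrFun (congrFun e1 0) 1
    have a01 := congrFun (congrFun e2 0) 0
    simp [Matrix.mul_apply, Matrix.vecMul, dotProduct, Fin.sum_univ_two] at a10 a00 a01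
    rw [Matrix.GeneralLinearGroup.center_eq_range_scalar]
    have hne : g.val 0 0 ≠ 0 := fun h => by
      apply Matrix.GeneralLinearGroup.det_ne_zero g
      rw [Matrix.det_fin_two, h, ← a10]
      simp
    refine ⟨Units.mk0 _ hne, Units.ext ?_⟩
    ext i j
    fin_cases i <;> fin_cases j <;> simp_all
  · intro hg
    rw [MonoidHom.mem_ker]
    apply Subtype.ext
    apply Units.ext
    refine Matrix.ext_iff_mulVec.2 fun v => ?_
    rw [OneMemClass.coe_one, Units.val_one, Matrix.one_mulVec]
    apply Function.LeftInverse.injective vec3_mat3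
    rw [adjoint_apply]
    rw [Matrix.GeneralLinearGroup.center_eq_range_scalar] at hg
    obtain ⟨u, rfl⟩ := hg
    have hc : (Matrix.GeneralLinearGroup.scalar (Fin 2) u : GL (Fin 2) F).val * mat3 v =
        mat3 v * (Matrix.GeneralLinearGroup.scalar (Fin 2) u : GL (Fin 2) F).val :=
      (Matrix.scalar_commute (u : F) (Commute.all _) (mat3 v)).eq
    rw [hc, mul_assoc, ← Units.val_mul, mul_inv_cancel, Units.val_one, mul_one]

/-- Minus one, as an isometry. -/
def negOne : Cfsg.isometryGroup F (Cfsg.quadFormOdd 1 F) :=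
  ⟨-1, fun u _ => by
    show Cfsg.quadFormOdd 1 F ((-1 : GL I3 F).val *ᵥ u) = _
    simp [quadFormOdd_one, Units.val_neg, Matrix.neg_mulVec, Matrix.det_fin_two]⟩

theorem negOne_mem_center : (negOne : Cfsg.isometryGroup F (Cfsg.quadFormOdd 1 F)) ∈
    Subgroup.center _ :=
  Subgroup.mem_center_iff.2 fun x => Subtype.ext (by simp [negOne])

theorem negOne_not_mem_range (h2 : (2 : F) ≠ 0) :
    (negOne : Cfsg.isometryGroup F (Cfsg.quadFormOdd 1 F)) ∉ (adjoint (F := F)).range := by
  rintro ⟨g, hg⟩
  have h1 : ∀ v : I3 → F, (adjoint g).1.val *ᵥ v = (-1 : F) • v := fun v => by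
    rw [hg]; simp [negOne, Units.val_neg, Matrix.neg_mulVec]
  have e1 := commute_of_adjoint_eq h1 (M := !![0, 1; 0, 0]) (by simp [Matrix.trace_fin_two])
  have e2 := commute_of_adjoint_eq h1 (M := !![0, 0; 1, 0]) (by simp [Matrix.trace_fin_two])
  have e3 := commute_of_adjoint_eq h1 (M := !![1, 0; 0, -1]) (by simp [Matrix.trace_fin_two])
  have a10 := congrFun (congrFun e1 0) 0
  have a01 := congrFun (congrFun e2 0) 0
  have a00 := congrFun (congrFun e3 0) 0
  simp [Matrix.mul_apply, Matrix.vecMul, dotProduct, Fin.sum_univ_two] at a10 a01 a00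
  apply Matrix.GeneralLinearGroup.det_ne_zero g
  have h00 : g.val 0 0 = 0 := by
    have : (2 : F) * g.val 0 0 = 0 := by linear_combination a00
    exact (mul_eq_zero.1 this).resolve_left h2
  rw [Matrix.det_fin_two, h00, a10]
  ring

theorem range_adjoint_toGL [Fintype F] (h2 : (2 : F) ≠ 0) (hodd : Odd (Fintype.card F)) :
    ((adjoint (F := F)).comp Matrix.SpecialLinearGroup.toGL).range =
      commutator (Cfsg.isometryGroup F (Cfsg.quadFormOdd 1 F)) := by
  classical
  have hcomm : commutator (GL (Fin 2) F) =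
      (Matrix.SpecialLinearGroup.toGL : Matrix.SpecialLinearGroup (Fin 2) F →* GL (Fin 2) F).range := by
    rw [CfsgLib.Classical.Linear.range_toGL_eq_ker_det]
    exact Cfsg.Agent.S0264.result 2 fun _ => ⟨-1, neg_ne_zero.2 one_ne_zero, fun h =>
      h2 (by linear_combination -h)⟩
  rw [MonoidHom.range_comp, ← hcomm]
  apply le_antisymm
  · simp only [commutator_def, Subgroup.map_commutator]
    exact Subgroup.commutator_mono le_top le_top
  · have hidx : (adjoint (F := F)).range.index = 2 := by
      have hc : Nat.card (Subgroup.center (GL (Fin 2) F)) = Nat.card Fˣ := by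
        rw [Matrix.GeneralLinearGroup.center_eq_range_scalar]
        refine (Nat.card_congr (MonoidHom.ofInjective fun a b h => ?_).toEquiv).symm
        have h' : (Matrix.GeneralLinearGroup.scalar (Fin 2) a : GL (Fin 2) F).val 0 0 =
            (Matrix.GeneralLinearGroup.scalar (Fin 2) b : GL (Fin 2) F).val 0 0 := by rw [h]
        exact Units.ext (by simpa using h')
      have h3 := (adjoint (F := F)).ker.card_mul_index
      rw [Subgroup.index_ker, adjoint_ker, hc, CfsgLib.Classical.Linear.card_gl_eq] at h3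
      have hr : Nat.card (adjoint (F := F)).range =
          Nat.card (Matrix.SpecialLinearGroup (Fin 2) F) := Nat.eq_of_mul_eq_mul_left Nat.card_pos h3
      have h4 := (adjoint (F := F)).range.card_mul_index
      rw [hr, CfsgLib.Classical.Linear.card_sl_two, Cfsg.Agent.S0286.result rfl hodd 1] at h4
      simp only [one_pow, Finset.prod_range_one, pow_one, zero_add, mul_one] at h4
      have hpos : 0 < Fintype.card F * (Fintype.card F ^ 2 - 1) :=
        Nat.mul_pos Fintype.card_pos (Nat.sub_pos_of_lt (Nat.one_lt_pow two_ne_zero Fintype.one_lt_card))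
      apply Nat.eq_of_mul_eq_mul_left hpos
      rw [h4]
      ring
    have hsplit : ∀ x : Cfsg.isometryGroup F (Cfsg.quadFormOdd 1 F),
        ∃ (z : Cfsg.isometryGroup F (Cfsg.quadFormOdd 1 F)) (g : GL (Fin 2) F),
          z ∈ Subgroup.center _ ∧ x = z * adjoint g := by
      intro x
      by_cases hx : x ∈ (adjoint (F := F)).range
      · obtain ⟨g, rfl⟩ := hx
        exact ⟨1, g, one_mem _, (one_mul _).symm⟩
      · have := (Subgroup.mul_mem_iff_of_index_two hidx (a := negOne) (b := x)).2
          (by simp [negOne_not_mem_range h2, hx])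
        obtain ⟨g, hg⟩ := this
        refine ⟨negOne⁻¹, g, inv_mem negOne_mem_center, ?_⟩
        rw [hg, inv_mul_cancel_left]
    rw [commutator_def, Subgroup.commutator_le]
    intro x _ y _
    obtain ⟨z, g, hz, rfl⟩ := hsplit x
    obtain ⟨w, k, hw, rfl⟩ := hsplit y
    refine ⟨⁅g, k⁆, Subgroup.commutator_mem_commutator (Subgroup.mem_top _) (Subgroup.mem_top _), ?_⟩
    rw [Subgroup.mem_center_iff] at hz hw
    rw [map_commutatorElement, commutatorElement_def, commutatorElement_def]
    set a := adjoint g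
    set b := adjoint k
    symm
    calc z * a * (w * b) * (z * a)⁻¹ * (w * b)⁻¹
        = z * (a * (w * b) * a⁻¹) * z⁻¹ * (w * b)⁻¹ := by simp only [mul_assoc, _root_.mul_inv_rev]
      _ = a * (w * b) * a⁻¹ * (w * b)⁻¹ := by
          rw [← hz (a * (w * b) * a⁻¹), mul_inv_cancel_right]
      _ = a * w * (b * a⁻¹ * b⁻¹) * w⁻¹ := by simp only [mul_assoc, _root_.mul_inv_rev]
      _ = w * (a * b * a⁻¹ * b⁻¹) * w⁻¹ := by rw [hw a]; simp only [mul_assoc]
      _ = a * b * a⁻¹ * b⁻¹ := by rw [← hw (a * b * a⁻¹ * b⁻¹), mul_inv_cancel_right]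

theorem pomega_three_equiv [Fintype F] (hodd : Odd (Fintype.card F)) :
    Nonempty (Cfsg.POmega F (Cfsg.quadFormOdd 1 F) ≃*
      Matrix.ProjectiveSpecialLinearGroup (Fin 2) F) := by
  have h2 : (2 : F) ≠ 0 := CfsgLib.SL2.two_ne_zero_iff_odd.2 hodd
  have hker : ((adjoint (F := F)).comp Matrix.SpecialLinearGroup.toGL).ker =
      Subgroup.center (Matrix.SpecialLinearGroup (Fin 2) F) := by
    rw [← MonoidHom.comap_ker, adjoint_ker]
    ext g
    exact Matrix.SpecialLinearGroup.toGL_mem_center_iff g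
  refine quotient_center_equiv _ (range_adjoint_toGL h2 hodd) hker.le fun s hs => ?_
  refine mem_center_of_commute_up_to_sign fun t => ?_
  rcases CfsgLib.SL2.mem_center_iff'.1 (hker ▸ hs t) with h | h
  · exact Or.inl (mul_inv_eq_one.1 h)
  · exact Or.inr (by rw [mul_inv_eq_iff_eq_mul.1 h, neg_one_mul])

end CfsgLib.OrthSmall
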